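import Cfsg.Agent.H86.Sp.Kit
import Cfsg.Agent.H357.Final

/-!
# Rows `23 ≤ n ≤ 26` of S3397 / S3446: the core (helper86)
-/

set_option autoImplicit false
set_option linter.unusedSectionVars false

namespace Cfsg.Agent.H86.Sp

open Subgroup Cfsg Cfsg.Agent.H357.Sp Cfsg.Agent.H414.Adj Cfsg.Agent.H414.Comp Cfsg.Agent.H414.Rad
  Cfsg.Agent.H546.Sp

universe u

/-! ### groups of Lie type -/

/-- the primes `13, 17, 19, 23` -/
def rho : Finset ℕ := {13, 17, 19, 23}

theorem no_lie_odd {r c : ℕ} (hr : r.Prime) (hr2 : r ≠ 2) (hS : Cfsg.Agent.H414.LieShape.Shape r c)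
    (hsm : ∀ p : ℕ, p.Prime → p ∣ c → p ≤ 26)
    (h3 : ∀ p ∈ rho, ∀ q ∈ rho, p ≠ q → p ∣ c ∨ q ∣ c) : False := by
  have hr26 := hsm r hr hS.chr
  have key : ∀ R R' : Cfsg.Agent.H414.RelB.RC, R.u ∈ rho → R'.u ∈ rho → R.u ≠ R'.u → R.u.Prime → R'.u.Prime →
      R.u ≠ r → R'.u ≠ r → (R.ls.map Prod.fst).Nodup → (R'.ls.map Prod.fst).Nodup →
      Cfsg.Agent.H149.Sa.relG Cfsg.Agent.H149.Sa.PP r R = true →
      Cfsg.Agent.H149.Sa.relG Cfsg.Agent.H149.Sa.PP r R' = true → 26 < R.v → 26 < R'.v → False := by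
    intro R R' h1 h2 h4 h5 h6 h7 h8 h9 h10 h11 h12 h13 h14
    rcases h3 _ h1 _ h2 h4 with h | h
    · exact not_dvd_of_cert hr hS hsm h5 h7 h9 h11 h13 h
    · exact not_dvd_of_cert hr hS hsm h6 h8 h10 h12 h14 h
  have hrc : r = 3 ∨ r = 5 ∨ r = 7 ∨ r = 11 ∨ r = 13 ∨ r = 17 ∨ r = 19 ∨ r = 23 := by
    interval_cases r <;> first | omega | (exfalso; revert hr; decide)
  rcases hrc with rfl | rfl | rfl | rfl | rfl | rfl | rfl | rfl
  · exact key ⟨17, 193, 16, 16, [(2, 4, 4)], 4, 0⟩ ⟨19, 37, 18, 18, [(2, 1, 1), (3, 2, 2)], 1, 2⟩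
      (by decide) (by decide) (by decide) (by norm_num) (by norm_num) (by decide) (by decide) (by decide) (by decide)
      (by decide +kernel) (by decide +kernel) (by decide) (by decide)
  · exact key ⟨19, 829, 9, 9, [(3, 2, 2)], 0, 2⟩ ⟨23, 67, 22, 22, [(2, 1, 1), (11, 1, 1)], 1, 0⟩
      (by decide) (by decide) (by decide) (by norm_num) (by norm_num) (by decide) (by decide) (by decide) (by decide)
      (by decide +kernel) (by decide +kernel) (by decide) (by decide)
  · exact key ⟨13, 181, 12, 12, [(2, 2, 2), (3, 1, 1)], 2, 1⟩ ⟨17, 169553, 16, 16, [(2, 4, 4)], 4, 0⟩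
      (by decide) (by decide) (by decide) (by norm_num) (by norm_num) (by decide) (by decide) (by decide) (by decide)
      (by decide +kernel) (by decide +kernel) (by decide) (by decide)
  · exact key ⟨13, 1117, 12, 12, [(2, 2, 2), (3, 1, 1)], 2, 1⟩ ⟨23, 89, 22, 22, [(2, 1, 1), (11, 1, 1)], 1, 0⟩
      (by decide) (by decide) (by decide) (by norm_num) (by norm_num) (by decide) (by decide) (by decide) (by decide)
      (by decide +kernel) (by decide +kernel) (by decide) (by decide)
  · exact key ⟨19, 271, 18, 18, [(2, 1, 1), (3, 2, 2)], 1, 2⟩ ⟨23, 419, 11, 11, [(11, 1, 1)], 0, 0⟩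
      (by decide) (by decide) (by decide) (by norm_num) (by norm_num) (by decide) (by decide) (by decide) (by decide)
      (by decide +kernel) (by decide +kernel) (by decide) (by decide)
  · exact key ⟨19, 1270657, 9, 9, [(3, 2, 2)], 0, 2⟩ ⟨23, 947, 22, 22, [(2, 1, 1), (11, 1, 1)], 1, 0⟩
      (by decide) (by decide) (by decide) (by norm_num) (by norm_num) (by decide) (by decide) (by decide) (by decide)
      (by decide +kernel) (by decide +kernel) (by decide) (by decide)
  · exact key ⟨13, 769, 12, 12, [(2, 2, 2), (3, 1, 1)], 2, 1⟩ ⟨17, 3833, 8, 8, [(2, 3, 3)], 3, 0⟩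
      (by decide) (by decide) (by decide) (by norm_num) (by norm_num) (by decide) (by decide) (by decide) (by decide)
      (by decide +kernel) (by decide +kernel) (by decide) (by decide)
  · exact key ⟨17, 3697, 16, 16, [(2, 4, 4)], 4, 0⟩ ⟨19, 7792003, 9, 9, [(3, 2, 2)], 0, 2⟩
      (by decide) (by decide) (by decide) (by norm_num) (by norm_num) (by decide) (by decide) (by decide) (by decide)
      (by decide +kernel) (by decide +kernel) (by decide) (by decide)

theorem no_lie_two {c : ℕ} (hS : Cfsg.Agent.H414.LieShape.Shape 2 c) (hsm : ∀ p : ℕ, p.Prime → p ∣ c → p ≤ 26)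
    (h23 : 23 ∣ c) : False :=
  not_dvd_of_cert (R := ⟨23, 89, 11, 11, [(11, 1, 1)], 0, 0⟩) Nat.prime_two hS hsm (by norm_num) (by decide)
    (by decide) (by decide +kernel) (by decide) h23

/-! ### sporadic groups -/

theorem spor_cases {S : Type u} [Group S] (h : IsSporadicGroup S ∨ Lie.IsoTits S)
    (hsm : ∀ p : ℕ, p.Prime → p ∣ Nat.card S → p ≤ 26) (h23 : 23 ∣ Nat.card S)
    (h3 : ∀ p ∈ rho, ∀ q ∈ rho, p ≠ q → p ∣ Nat.card S ∨ q ∣ Nat.card S) : Spor.IsoFi23 S := by
  have a29 := hsm 29 (by norm_num)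
  have a31 := hsm 31 (by norm_num)
  have b1 := h3 13 (by decide) 17 (by decide) (by decide)
  have b2 := h3 13 (by decide) 19 (by decide) (by decide)
  have b3 := h3 17 (by decide) 19 (by decide) (by decide)
  clear hsm h3
  rcases h with (h | h | h | h | h | h | h | h | h | h | h | h | h | h | h | h | h | h | h | h | h | h | h | h | h | h) | h
  · rw [NotCT.Orders.m11 h] at *; omega
  · rw [NotCT.Orders.m12 h] at *; omega
  · rw [NotCT.Orders.m22 h] at *; omega
  · rw [NotCT.Orders.m23 h] at *; omega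
  · rw [NotCT.Orders.m24 h] at *; omega
  · rw [NotCT.Orders.j1 h] at *; omega
  · rw [NotCT.Orders.j2 h] at *; omega
  · rw [NotCT.Orders.j3 h] at *; omega
  · rw [NotCT.Orders.j4 h] at *; omega
  · rw [NotCT.Orders.co1 h] at *; omega
  · rw [NotCT.Orders.co2 h] at *; omega
  · rw [NotCT.Orders.co3 h] at *; omega
  · rw [NotCT.Orders.mcl h] at *; omega
  · rw [NotCT.Orders.hs h] at *; omega
  · rw [NotCT.Orders.suz h] at *; omega
  · rw [NotCT.Orders.he h] at *; omega
  · rw [NotCT.Orders.ru h] at *; omega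
  · rw [NotCT.Orders.on h] at *; omega
  · rw [NotCT.Orders.ly h] at *; omega
  · rw [NotCT.Orders.fi22 h] at *; omega
  · exact h
  · rw [NotCT.Orders.fi24 h] at *; omega
  · rw [NotCT.Orders.hn h] at *; omega
  · rw [NotCT.Orders.th h] at *; omega
  · rw [NotCT.Orders.b h] at *; omega
  · rw [NotCT.Orders.m h] at *; omega
  · rw [NotCT.Orders.tits h] at *; omega

/-! ### `Fi₂₃` -/

theorem residues : ∀ b < 14, ∀ e ∈ [1, 2], (e * 3 ^ b) % 23 ≠ 11 := by decide

/-- an element of order 11 normalizing a Sylow 23-subgroup -/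
theorem fi23_frob {S : Type u} [Group S] [Finite S] (hc : Nat.card S = 4089470473293004800)
    (hC : ∀ y : S, orderOf y = 23 → ∀ p : ℕ, p.Prime → p ∣ Nat.card (centralizer ({y} : Set S)) → p = 3 ∨ p = 23) :
    ∃ y x : S, orderOf y = 23 ∧ orderOf x = 11 ∧ x ∈ normalizer (zpowers y : Set S) := by
  have hF : Fact (Nat.Prime 23) := ⟨by norm_num⟩
  have hF11 : Fact (Nat.Prime 11) := ⟨by norm_num⟩
  have h23 : 23 ∣ Nat.card S := by rw [hc]; norm_num
  obtain ⟨y, hy⟩ := exists_prime_orderOf_dvd_card' 23 h23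
  set Z : Subgroup S := zpowers y with hZ
  have hZc : Nat.card Z = 23 := by rw [hZ, Nat.card_zpowers, hy]
  have hZp : IsPGroup 23 Z := IsPGroup.of_card (n := 1) (by rw [hZc, pow_one])
  obtain ⟨Q, hQ⟩ := hZp.exists_le_sylow
  have hQZ : (Q : Subgroup S) = Z := by
    symm
    refine Subgroup.eq_of_le_of_card_ge hQ ?_
    obtain ⟨k, hk⟩ := IsPGroup.iff_card.1 Q.2
    rw [hk, hZc]
    have h4 : k < 2 := by
      by_contra hk2
      have h5 : 23 ^ 2 ∣ Nat.card S := by
        refine (Nat.pow_dvd_pow 23 (not_lt.1 hk2)).trans ?_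
        rw [← hk]; exact card_subgroup_dvd_card _
      rw [hc] at h5
      norm_num at h5
    calc 23 ^ k ≤ 23 ^ 1 := Nat.pow_le_pow_right (by norm_num) (by omega)
      _ = 23 := pow_one 23
  set N := normalizer ((Z : Subgroup S) : Set S) with hN
  by_cases h11 : 11 ∣ Nat.card N
  · obtain ⟨x, hx⟩ := exists_prime_orderOf_dvd_card' 11 h11
    exact ⟨y, x, hy, by rw [Subgroup.orderOf_coe, hx], x.2⟩
  exfalso
  have h1 : N.index ≡ 1 [MOD 23] := by
    have h2 := card_sylow_modEq_one 23 S
    have h3 : normalizer (((Q : Subgroup S) : Set S)) = N := by rw [hQZ]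
    rw [Sylow.card_eq_index_normalizer Q] at h2
    rw [← h3]
    exact h2
  let φ : N →* MulAut Z := Subgroup.normalizerMonoidHom Z
  set C := centralizer ({y} : Set S) with hCdef
  have hker : φ.ker = C.subgroupOf N := by
    ext n
    rw [MonoidHom.mem_ker, mem_subgroupOf, hCdef, mem_centralizer_singleton_iff]
    constructor
    · intro h
      have h6 := congrArg (fun f : MulAut Z => ((f ⟨y, mem_zpowers y⟩ : Z) : S)) h
      have h7 : (n : S) * y * (n : S)⁻¹ = y := h6
      rw [mul_inv_eq_iff_eq_mul] at h7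
      exact h7
    · intro h
      apply MulEquiv.ext
      rintro ⟨z, i, rfl⟩
      apply Subtype.ext
      show (n : S) * y ^ i * (n : S)⁻¹ = y ^ i
      rw [((show Commute (n : S) y from h).zpow_right i).eq, mul_inv_cancel_right]
  have hCN : C ≤ N := by
    intro g hg
    rw [hCdef, mem_centralizer_singleton_iff] at hg
    rw [hN, mem_normalizer_iff]
    intro b
    have key : ∀ i : ℤ, g * y ^ i * g⁻¹ = y ^ i := fun i => by
      have h2 : Commute g (y ^ i) := (show Commute g y from hg).zpow_right i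
      rw [h2.eq, mul_inv_cancel_right]
    constructor
    · rintro ⟨i, rfl⟩
      exact ⟨i, (key i).symm⟩
    · rintro ⟨i, hi⟩
      refine ⟨i, ?_⟩
      have h3 : g * y ^ i * g⁻¹ = g * b * g⁻¹ := (key i).trans hi
      exact mul_left_cancel (mul_right_cancel h3)
  have hrel : C.relIndex N ∣ 22 := by
    have h6 : C.relIndex N = Nat.card φ.range := by
      rw [relIndex, ← hker, index_ker]
    have h7 : Nat.card (MulAut Z) = 22 := by
      have hcyc : IsCyclic Z := isCyclic_of_prime_card hZc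
      rw [IsCyclic.card_mulAut, hZc, Nat.totient_prime (by norm_num)]
    rw [h6, ← h7]
    exact card_subgroup_dvd_card _
  have hNC : Nat.card N = Nat.card C * C.relIndex N := by
    rw [← Subgroup.card_mul_index (C.subgroupOf N), Nat.card_congr (Subgroup.subgroupOfEquivOfLe hCN).toEquiv]
    rfl
  -- the index is 1 or 2
  have he : C.relIndex N = 1 ∨ C.relIndex N = 2 := by
    have h8 : ¬ 11 ∣ C.relIndex N := fun h => h11 (by rw [hNC]; exact h.mul_left _)
    have h9 : C.relIndex N ∈ Nat.divisors 22 := Nat.mem_divisors.2 ⟨hrel, by norm_num⟩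
    have h10 : Nat.divisors 22 = {1, 2, 11, 22} := by decide
    rw [h10] at h9
    simp only [Finset.mem_insert, Finset.mem_singleton] at h9
    rcases h9 with h9 | h9 | h9 | h9
    · exact Or.inl h9
    · exact Or.inr h9
    · rw [h9] at h8; exact absurd (dvd_refl 11) h8
    · rw [h9] at h8; exact absurd (by norm_num) h8
  -- the order of the centralizer
  have hyC : y ∈ C := mem_centralizer_singleton_iff.2 rfl
  have h23C : 23 ∣ Nat.card C := by
    have := orderOf_dvd_natCard (⟨y, hyC⟩ : C)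
    rwa [Subgroup.orderOf_mk, hy] at this
  obtain ⟨c, hcc⟩ := h23C
  have hcS : 23 * c ∣ 4089470473293004800 := by rw [← hcc, ← hc]; exact card_subgroup_dvd_card _
  have hc0 : c ≠ 0 := by
    rintro rfl
    rw [mul_zero] at hcS
    exact absurd (zero_dvd_iff.1 hcS) (by norm_num)
  have hc1 : c ∣ 177803064056217600 := by
    have : 4089470473293004800 = 23 * 177803064056217600 := by norm_num
    rw [this] at hcS
    exact Nat.dvd_of_mul_dvd_mul_left (by norm_num) hcS
  obtain ⟨b, hb⟩ : ∃ b, c = 3 ^ b := by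
    refine ⟨c.factorization 3, ?_⟩
    have h12 : ∀ p : ℕ, p.Prime → p ∣ c → p = 3 := by
      intro p hp hpc
      rcases hC y hy p hp (by rw [← hCdef, hcc]; exact hpc.mul_left _) with h | h
      · exact h
      · exfalso
        rw [h] at hpc
        exact absurd (hpc.trans hc1) (by norm_num)
    exact Nat.eq_prime_pow_of_unique_prime_dvd hc0 (fun {d} hd hdc => h12 d hd hdc) ▸ by
      rw [Nat.Prime.factorization_pow Nat.prime_three]
      simp
  have hb14 : b < 14 := by
    by_contra hcon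
    have h13 : 3 ^ 14 ∣ 177803064056217600 := by
      refine (Nat.pow_dvd_pow 3 (not_lt.1 hcon)).trans ?_
      rw [← hb]; exact hc1
    norm_num at h13
  -- the congruence
  have hSN : Nat.card S = Nat.card N * N.index := (Subgroup.card_mul_index N).symm
  rw [hc, hNC, hcc, hb] at hSN
  have h14 : 177803064056217600 = C.relIndex N * 3 ^ b * N.index := by
    have : 23 * 177803064056217600 = 23 * (C.relIndex N * 3 ^ b * N.index) := by
      rw [show 23 * 177803064056217600 = 4089470473293004800 by norm_num, hSN]; ring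
    omega
  have h15 : (C.relIndex N * 3 ^ b * N.index) % 23 = (C.relIndex N * 3 ^ b) % 23 := by
    have := h1.mul_left (C.relIndex N * 3 ^ b)
    rw [mul_one] at this
    exact this
  rw [← h14] at h15
  exact residues b hb14 (C.relIndex N) (by rcases he with he | he <;> rw [he] <;> decide) (by rw [← h15])

end Cfsg.Agent.H86.Sp
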