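import Cfsg.Agent.H357.Sp.Spec
import Cfsg.Agent.H414.Comp
import Cfsg.Agent.H414.Rad
import Cfsg.Agent.H403.GroupLift
import Cfsg.Agent.H546.Sp.Norm
import Cfsg.Agent.H511.Sp.TopN
import Cfsg.Agent.H149.Sa.Base
import Cfsg.Agent.PreUniq.Cases
import Cfsg.Agent.NotCT.Orders
import Cfsg.Agent.H357.PermOrd

/-!
# Rows of S3397 / S3446: tools (helper86)
-/

set_option autoImplicit false
set_option linter.unusedSectionVars false

namespace Cfsg.Agent.H86.Sp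

open Subgroup Cfsg.Agent.H357.Sp Cfsg.Agent.H414.Adj Cfsg.Agent.H414.Comp Cfsg.Agent.H414.Rad
  Cfsg.Agent.H546.Sp

universe u

variable {G : Type u} [Group G] [Finite G] {ε n : ℕ}

/-! ### orders of elements -/

theorem W_mul {p q : ℕ} (hp : p.Prime) (hq : q.Prime) (hpq : p ≠ q) : W (p * q) = p + q := by
  rw [W_mul_of_coprime ((Nat.coprime_primes hp hq).2 hpq), W_prime hp, W_prime hq]

theorem dvd_of_le (h : Spec ε n G) {p : ℕ} (hp : p.Prime) (hp2 : p ≠ 2) (hn : p ≤ n) : p ∣ Nat.card G := by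
  have ho : ¬ Even p := by
    rw [Nat.not_even_iff_odd]
    exact hp.odd_of_ne_two hp2
  obtain ⟨x, hx⟩ := h.down p hp.pos (by rw [W_prime hp, if_neg ho]; omega)
  rw [← hx]
  exact orderOf_dvd_natCard x

theorem le_of_dvd (h : Spec ε n G) {p : ℕ} (hp : p.Prime) (hd : p ∣ Nat.card G) : p ≤ n := by
  have := Fact.mk hp
  obtain ⟨x, hx⟩ := exists_prime_orderOf_dvd_card' p hd
  have h1 := h.up x
  rw [hx, W_prime hp] at h1
  omega

theorem no_mul (h : Spec ε n G) {p q : ℕ} (hp : p.Prime) (hq : q.Prime) (hpq : p ≠ q) (hn : n < p + q) :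
    ¬ ∃ x : G, orderOf x = p * q := by
  rintro ⟨x, hx⟩
  have h1 := h.up x
  rw [hx, W_mul hp hq hpq] at h1
  omega

theorem no_two_mul (h : Spec ε n G) {p : ℕ} (hp : p.Prime) (hp2 : p ≠ 2) (hn : n < 2 + p + ε) :
    ¬ ∃ x : G, orderOf x = 2 * p := by
  rintro ⟨x, hx⟩
  have h1 := h.up x
  rw [hx, W_mul Nat.prime_two hp hp2.symm, if_pos (even_two_mul p)] at h1
  omega

/-- **The frame**: `p₀` is not adjacent to `2`, `ρ` is a set of primes in `(n/2, n]` -/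
structure Fr (p₀ : ℕ) (ρ : Finset ℕ) (K : Subgroup G) [K.Normal] (S : Subgroup (G ⧸ K)) : Prop where
  solv : Group.IsSolvable ↥K
  comp : IsComp S
  norm : S.Normal
  cent : centralizer (S : Set (G ⧸ K)) = ⊥
  alt : AltL2 ↥S ∨ (¬ p₀ ∣ Nat.card ↥K ∧ ¬ p₀ ∣ S.index)
  one : ∀ p ∈ ρ, ∀ q ∈ ρ, p ∣ Nat.card ↥K * S.index → q ∣ Nat.card ↥K * S.index → p = q

theorem card_eq (K : Subgroup G) [K.Normal] (S : Subgroup (G ⧸ K)) :
    Nat.card G = Nat.card ↥S * (Nat.card ↥K * S.index) := by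
  rw [Subgroup.card_eq_card_quotient_mul_card_subgroup K, ← Subgroup.card_mul_index S]
  ring

/-- primes of `G` not dividing `|K| |G/K : S|` divide `|S|` -/
theorem dvd_S (K : Subgroup G) [K.Normal] (S : Subgroup (G ⧸ K)) {p : ℕ} (hp : p.Prime) (hd : p ∣ Nat.card G)
    (h : ¬ p ∣ Nat.card ↥K * S.index) : p ∣ Nat.card ↥S := by
  rw [card_eq K S] at hd
  exact (hp.dvd_mul.1 hd).resolve_right h

theorem S_dvd (K : Subgroup G) [K.Normal] (S : Subgroup (G ⧸ K)) : Nat.card ↥S ∣ Nat.card G := by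
  rw [card_eq K S]
  exact Dvd.intro _ rfl

/-- element orders of `S` are element orders of `G` -/
theorem exists_of_S (K : Subgroup G) [K.Normal] (S : Subgroup (G ⧸ K)) {k : ℕ} (hk : k ≠ 0)
    (h : ∃ x : ↥S, orderOf x = k) : ∃ x : G, orderOf x = k :=
  exists_order_quot K hk (exists_order_subgroup h)

theorem bnd_S (h : Spec ε n G) (K : Subgroup G) [K.Normal] (S : Subgroup (G ⧸ K)) (x : ↥S) : W (orderOf x) ≤ n := by
  obtain ⟨y, hy⟩ := exists_of_S K S (orderOf_pos x).ne' ⟨x, rfl⟩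
  have h1 := h.up y
  rw [hy] at h1
  omega

/-! ### groups of Lie type -/

/-- a certificate kills the prime `c.u` -/
theorem not_dvd_of_cert {N r c : ℕ} (hr : r.Prime) (hS : Cfsg.Agent.H414.LieShape.Shape r c)
    (hsm : ∀ p : ℕ, p.Prime → p ∣ c → p ≤ N) {R : Cfsg.Agent.H414.RelB.RC} (hu : R.u.Prime) (hur : R.u ≠ r)
    (hnd : (R.ls.map Prod.fst).Nodup) (h : Cfsg.Agent.H149.Sa.relG Cfsg.Agent.H149.Sa.PP r R = true) (hv : N < R.v) :
    ¬ R.u ∣ c := by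
  intro hd
  obtain ⟨h1, h2, h3⟩ := Cfsg.Agent.H149.Sa.rel_of_relG Cfsg.Agent.H149.Sa.prime_of_PP hr hu hnd h
  have := hsm _ h1 (hS.dvd hr hu hur h1 h2 h3 hd)
  omega

/-! ### alternating groups -/

theorem alt_le (h : Spec ε n G) (K : Subgroup G) [K.Normal] (S : Subgroup (G ⧸ K)) {m : ℕ}
    (e : Nonempty (↥S ≃* alternatingGroup (Fin m))) {P : Finset ℕ} (hP : ∀ p ∈ P, p.Prime ∧ p ≠ 2)
    (hs : ∑ p ∈ P, p = n + 1) (hW : n < W (∏ p ∈ P, p)) : m ≤ n := by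
  by_contra hm
  obtain ⟨e⟩ := e
  obtain ⟨g, hg⟩ := H357.PermOrd.exists_order_prod (m := m) hP (by omega)
  have h1 := bnd_S h K S (e.symm g)
  have h2 : orderOf (e.symm g) = orderOf g := orderOf_injective e.symm.toMonoidHom e.symm.injective g
  rw [h2, hg] at h1
  omega

/-- conclusion -/
theorem row_of_alt (K : Subgroup G) [hKn : K.Normal] (hK : Group.IsSolvable ↥K) (S : Subgroup (G ⧸ K)) [S.Normal]
    (hc : centralizer (S : Set (G ⧸ K)) = ⊥) {m : ℕ} (hm : 7 ≤ m) (e : Nonempty (↥S ≃* alternatingGroup (Fin m))) :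
    Top m K := by
  obtain ⟨N, hN, h1, -, -, h2⟩ := H511.Sp.exists_top hm e
  have h3 := h2 hc
  subst h3
  exact h1

end Cfsg.Agent.H86.Sp
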